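import Mathlib
import Cfsg.Prelude.Def_OddOrderLocal
import Cfsg.Agent.Lib.Helper35.BG.Basic
import Cfsg.Agent.Lib.Helper1.HallConj
import Cfsg.Agent.Lib.Helper23.Compl
import Cfsg.Agent.Lib.Helper67.BG.Basics

/-!
Hall subgroups relative to a subgroup (`Cfsg.IsPiHallOf`): cardinality and conjugacy in a
solvable subgroup; commutativity plumbing (helper35).
-/

set_option autoImplicit false

namespace Cfsg.Agent.Lib.Helper35.BG

open Cfsg Pointwise

variable {G : Type*} [Group G]

theorem card_mul_relIndex' {H M : Subgroup G} (h : H ≤ M) :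
    Nat.card H * H.relIndex M = Nat.card M := by
  have := Subgroup.card_mul_index (H.subgroupOf M)
  rwa [Nat.card_congr (Subgroup.subgroupOfEquivOfLe h).toEquiv] at this

/-! ### commutativity plumbing -/

theorem isMulCommutative_subgroup_iff {H : Subgroup G} :
    IsMulCommutative H ↔ ∀ a ∈ H, ∀ b ∈ H, a * b = b * a := by
  rw [isMulCommutative_iff]
  constructor
  · intro h a ha b hb
    exact congrArg Subtype.val (h ⟨a, ha⟩ ⟨b, hb⟩)
  · intro h a b
    exact Subtype.ext (h a a.2 b b.2)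

theorem isMulCommutative_of_le {H K : Subgroup G} (hHK : H ≤ K) (hK : IsMulCommutative K) :
    IsMulCommutative H := by
  rw [isMulCommutative_subgroup_iff] at hK ⊢
  exact fun a ha b hb => hK a (hHK ha) b (hHK hb)

theorem isMulCommutative_map_conj {H : Subgroup G} (hH : IsMulCommutative H) (g : G) :
    IsMulCommutative (H.map (MulAut.conj g).toMonoidHom) := by
  rw [isMulCommutative_subgroup_iff] at hH ⊢
  rintro _ ⟨a, ha, rfl⟩ _ ⟨b, hb, rfl⟩
  have := hH a ha b hb
  simp only [MulEquiv.coe_toMonoidHom, MulAut.conj_apply]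
  calc g * a * g⁻¹ * (g * b * g⁻¹) = g * (a * b) * g⁻¹ := by group
    _ = g * (b * a) * g⁻¹ := by rw [this]
    _ = g * b * g⁻¹ * (g * a * g⁻¹) := by group

/-! ### relative Hall subgroups -/

/-- The order of a Hall `π`-subgroup of `M` is determined. -/
theorem card_eq_of_isPiHallOf [Finite G] {π : Set ℕ} {H H' M : Subgroup G}
    (hH : IsPiHallOf π H M) (hH' : IsPiHallOf π H' M) : Nat.card H = Nat.card H' := by
  have e1 : Nat.card H * H.relIndex M = Nat.card M := card_mul_relIndex' hH.1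
  have e2 : Nat.card H' * H'.relIndex M = Nat.card M := card_mul_relIndex' hH'.1
  have c1 : (Nat.card H).Coprime (H'.relIndex M) :=
    Nat.coprime_of_dvd fun k hk h1 h2 => hH'.2.2 k hk (hH.2.1 k hk h1) h2
  have c2 : (Nat.card H').Coprime (H.relIndex M) :=
    Nat.coprime_of_dvd fun k hk h1 h2 => hH.2.2 k hk (hH'.2.1 k hk h1) h2
  have d1 : Nat.card H ∣ Nat.card H' := by
    apply c1.dvd_of_dvd_mul_right
    rw [e2, ← e1]; exact dvd_mul_right _ _
  have d2 : Nat.card H' ∣ Nat.card H := by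
    apply c2.dvd_of_dvd_mul_right
    rw [e1, ← e2]; exact dvd_mul_right _ _
  exact Nat.dvd_antisymm d1 d2

/-- Hall subgroups of a solvable subgroup are conjugate in it. -/
theorem exists_conj_of_isPiHallOf [Finite G] {π : Set ℕ} {H H' M : Subgroup G}
    (hM : Group.IsSolvable M) (hH : IsPiHallOf π H M) (hH' : IsPiHallOf π H' M) :
    ∃ m ∈ M, H' = H.map (MulAut.conj m).toMonoidHom := by
  have e1 : Nat.card H * H.relIndex M = Nat.card M := card_mul_relIndex' hH.1
  have c1 : (Nat.card H).Coprime (H.relIndex M) :=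
    Nat.coprime_of_dvd fun k hk h1 h2 => hH.2.2 k hk (hH.2.1 k hk h1) h2
  have k1 : Nat.card (H.subgroupOf M) = Nat.card H :=
    Nat.card_congr (Subgroup.subgroupOfEquivOfLe hH.1).toEquiv
  have k2 : Nat.card (H'.subgroupOf M) = Nat.card H := by
    rw [card_eq_of_isPiHallOf hH hH']
    exact Nat.card_congr (Subgroup.subgroupOfEquivOfLe hH'.1).toEquiv
  obtain ⟨g, hg⟩ := Cfsg.Agent.Lib.Helper1.hall_conj (G := ↥M) (Nat.card H) (H.relIndex M) e1.symm c1
    (H.subgroupOf M) (H'.subgroupOf M) k1 k2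
  refine ⟨(g : G), g.2, ?_⟩
  symm
  apply Subgroup.eq_of_le_of_card_ge
  · rintro _ ⟨x, hx, rfl⟩
    have h1 : (MulAut.conj g) • (⟨x, hH.1 hx⟩ : ↥M) ∈ MulAut.conj g • H.subgroupOf M :=
      Subgroup.smul_mem_pointwise_smul _ _ _ (Subgroup.mem_subgroupOf.mpr hx)
    rw [hg] at h1
    have h2 := Subgroup.mem_subgroupOf.mp h1
    simpa [MulAut.conj_apply] using h2
  · rw [card_map_conj, card_eq_of_isPiHallOf hH hH']

/-! ### complements and the standard factorisation -/

theorem relIndex_left_of_isComplIn [Finite G] {A B M : Subgroup G} (h : IsComplIn A B M) :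
    A.relIndex M = Nat.card B := by
  have e1 := card_mul_relIndex' h.1
  have e2 := Cfsg.Agent.Lib.Helper23.card_of_isComplIn h
  have hpos : 0 < Nat.card A := Nat.card_pos
  apply Nat.eq_of_mul_eq_mul_left hpos
  rw [e1, e2]

theorem relIndex_right_of_isComplIn [Finite G] {A B M : Subgroup G} (h : IsComplIn A B M) :
    B.relIndex M = Nat.card A := by
  have e1 := card_mul_relIndex' h.2.1
  have e2 := Cfsg.Agent.Lib.Helper23.card_of_isComplIn h
  have hpos : 0 < Nat.card B := Nat.card_pos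
  apply Nat.eq_of_mul_eq_mul_left hpos
  rw [e1, e2, mul_comm]

/-- `|K M_σ|` divides `|K| |M_σ|`. -/
theorem card_sup_sigmaCore_dvd [Finite G] {K M : Subgroup G} (hKM : K ≤ M) :
    Nat.card (K ⊔ sigmaCore M : Subgroup G) ∣ Nat.card K * Nat.card (sigmaCore M) := by
  have hσM : sigmaCore M ≤ M := Cfsg.Agent.Lib.Helper67.BG.sigmaCore_le M
  have hJM : K ⊔ sigmaCore M ≤ M := sup_le hKM hσM
  have h1 : Nat.card (K ⊔ sigmaCore M : Subgroup G) =
      Nat.card ((K ⊔ sigmaCore M).subgroupOf M) :=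
    (Nat.card_congr (Subgroup.subgroupOfEquivOfLe hJM).toEquiv).symm
  have h2 : (sigmaCore M).subgroupOf M = piCore (sigma M) M := by
    unfold sigmaCore
    exact Subgroup.comap_map_eq_self_of_injective M.subtype_injective _
  rw [h1, Subgroup.subgroupOf_sup hKM hσM, h2]
  have h3 := Subgroup.card_mul_index ((piCore (sigma M) M).subgroupOf
    (K.subgroupOf M ⊔ piCore (sigma M) M))
  have h4 : Nat.card ((piCore (sigma M) M).subgroupOf (K.subgroupOf M ⊔ piCore (sigma M) M)) =
      Nat.card (piCore (sigma M) M) :=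
    Nat.card_congr (Subgroup.subgroupOfEquivOfLe le_sup_right).toEquiv
  have h5 : ((piCore (sigma M) M).subgroupOf (K.subgroupOf M ⊔ piCore (sigma M) M)).index =
      (piCore (sigma M) M).relIndex (K.subgroupOf M) := Subgroup.relIndex_sup_right _ _
  rw [h4, h5] at h3
  rw [← h3, mul_comm, Cfsg.Agent.Lib.Helper67.BG.card_sigmaCore]
  apply Nat.mul_dvd_mul_right
  have h6 : (piCore (sigma M) M).relIndex (K.subgroupOf M) ∣ Nat.card (K.subgroupOf M) :=
    Subgroup.relIndex_dvd_card _ _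
  rwa [Nat.card_congr (Subgroup.subgroupOfEquivOfLe hKM).toEquiv] at h6

/-- In a standard factorisation `M = K U M_σ`, `U` is a Hall subgroup of `M` for the primes
outside `κ(M) ∪ σ(M)`. -/
theorem isPiHallOf_of_sigmaDecomposition [Finite G] {M K U : Subgroup G}
    (hσH : IsPiHallOf (sigma M) (sigmaCore M) M) (hKU : IsSigmaDecomposition M K U) :
    IsPiHallOf {q | q.Prime ∧ q ∉ kappa M ∧ q ∉ sigma M} U M := by
  have hc := hKU.compl
  have hK := hKU.hall
  have hJM : K ⊔ sigmaCore M ≤ M := hc.2.1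
  have hrJ : (K ⊔ sigmaCore M).relIndex M = Nat.card U := relIndex_right_of_isComplIn hc
  have hrU : U.relIndex M = Nat.card (K ⊔ sigmaCore M : Subgroup G) :=
    relIndex_left_of_isComplIn hc
  refine ⟨hc.1, ?_, ?_⟩
  · intro p hp hpU
    refine ⟨hp, fun hκ => hK.2.2 p hp hκ ?_, fun hσ => hσH.2.2 p hp hσ ?_⟩
    · rw [← Subgroup.relIndex_mul_relIndex K (K ⊔ sigmaCore M) M le_sup_left hJM, hrJ]
      exact dvd_mul_of_dvd_right hpU _
    · rw [← Subgroup.relIndex_mul_relIndex (sigmaCore M) (K ⊔ sigmaCore M) M le_sup_right hJM, hrJ]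
      exact dvd_mul_of_dvd_right hpU _
  · intro p hp hpπ hdvd
    rw [hrU] at hdvd
    have h1 := dvd_trans hdvd (card_sup_sigmaCore_dvd hK.1)
    rcases (Nat.Prime.dvd_mul hp).mp h1 with h | h
    · exact hpπ.2.1 (hK.2.1 p hp h)
    · exact hpπ.2.2 (hσH.2.1 p hp h)

end Cfsg.Agent.Lib.Helper35.BG
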