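import Mathlib
import Cfsg.Statements.S1350
import Cfsg.Statements.S1421
import Cfsg.Statements.S1430
import Cfsg.Agent.Lib.Helper35.BG.Hall
import Cfsg.Agent.Lib.Helper75.BGUtil
import Cfsg.Agent.Lib.Helper67.BG.Basics

/-!
Statement S1359 (the singular elements of `U` generate an abelian group), with S1350, S1421
and S1430 as hypotheses (helper35).
-/

set_option autoImplicit false

namespace Cfsg.Agent.Lib.Helper35.BG

open Cfsg

variable {G : Type*} [Group G] [Finite G]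

omit [Finite G] in
/-- If `K = 1` is a Hall `κ(M)`-subgroup of `M`, then `κ(M)` is empty. -/
theorem kappa_empty_of_hall_bot {M : Subgroup G} (h : IsPiHallOf (kappa M) ⊥ M) :
    ∀ p, p ∉ kappa M := by
  intro p hp
  have h1 := h.2.2 p hp.1 hp
  rw [Subgroup.relIndex_bot_left] at h1
  exact h1 hp.2.1

/-- A prime `r ∉ σ(M)` of rank one with a singular element of order `r` lies in `κ(M)`. -/
theorem mem_kappa_of_singular (hG : IsMinSimpleOddOrder G) {M : Subgroup G} {r : ℕ}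
    [Fact r.Prime] (hr : r ∉ sigma M) (hrk : PRankLE r 1 M)
    {e y : G} (heM : e ∈ M) (he : orderOf e = r) (hy : y ∈ sigmaCore M) (hy1 : y ≠ 1)
    (hcomm : e * y = y * e) : r ∈ kappa M := by
  have hrp : r.Prime := Fact.out
  have hrM : r ∣ Nat.card M := by
    have h1 : orderOf (⟨e, heM⟩ : ↥M) = r := by
      rw [← he]; exact Subgroup.orderOf_mk e heM
    rw [← h1]; exact orderOf_dvd_natCard _
  have hr2 : r ≠ 2 := by
    rintro rfl
    have hodd : Odd (Nat.card M) := odd_card_subgroup hG M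
    exact (Nat.not_even_iff_odd.mpr hodd) (even_iff_two_dvd.mpr hrM)
  refine ⟨hrp, hrM, hr, fun P => ⟨?_, ?_⟩⟩
  · exact Cfsg.Agent.Lib.Helper75.BG.isCyclic_sylow_of_rank_one M M le_rfl r hr2 hrk P
  · -- conjugate `e` into `P`
    have hpg : IsPGroup r (Subgroup.zpowers (⟨e, heM⟩ : ↥M)) := by
      apply IsPGroup.of_card (n := 1)
      rw [Nat.card_zpowers, pow_one, ← he]
      exact Subgroup.orderOf_mk e heM
    obtain ⟨Q, hQ⟩ := hpg.exists_le_sylow
    obtain ⟨m, hm⟩ := MulAction.exists_smul_eq ↥M Q P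
    have heQ : (⟨e, heM⟩ : ↥M) ∈ (Q : Subgroup ↥M) := hQ (Subgroup.mem_zpowers _)
    have hmem : m * (⟨e, heM⟩ : ↥M) * m⁻¹ ∈ (P : Subgroup ↥M) := by
      rw [← hm, Sylow.coe_subgroup_smul, Subgroup.mem_pointwise_smul_iff_inv_smul_mem]
      have : (MulAut.conj m)⁻¹ • (m * (⟨e, heM⟩ : ↥M) * m⁻¹) = ⟨e, heM⟩ := by
        simp [mul_assoc]
      show (MulAut.conj m)⁻¹ • (m * (⟨e, heM⟩ : ↥M) * m⁻¹) ∈ (Q : Subgroup ↥M)
      rw [this]; exact heQ
    refine ⟨m * (⟨e, heM⟩ : ↥M) * m⁻¹, hmem, ?_, (m : G) * y * (m : G)⁻¹, ?_, ?_, ?_⟩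
    · intro h
      have h1 : (⟨e, heM⟩ : ↥M) = 1 := by
        have : (⟨e, heM⟩ : ↥M) = m⁻¹ * (m * (⟨e, heM⟩ : ↥M) * m⁻¹) * m := by group
        rw [this, h]; group
      have h2 : e = 1 := congrArg Subtype.val h1
      rw [h2, orderOf_one] at he
      exact hrp.one_lt.ne he
    · have h1 := Cfsg.Agent.Lib.Helper67.BG.sigmaCore_normalizer M m.2
      exact (Subgroup.mem_normalizer_iff.mp h1 y).mp hy
    · intro h
      apply hy1
      have : y = (m : G)⁻¹ * ((m : G) * y * (m : G)⁻¹) * (m : G) := by group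
      rw [this, h]; group
    · show (m : G) * e * (m : G)⁻¹ * ((m : G) * y * (m : G)⁻¹) =
        (m : G) * y * (m : G)⁻¹ * ((m : G) * e * (m : G)⁻¹)
      calc (m : G) * e * (m : G)⁻¹ * ((m : G) * y * (m : G)⁻¹)
          = (m : G) * (e * y) * (m : G)⁻¹ := by group
        _ = (m : G) * (y * e) * (m : G)⁻¹ := by rw [hcomm]
        _ = (m : G) * y * (m : G)⁻¹ * ((m : G) * e * (m : G)⁻¹) := by group

/-- If `κ(M) = ∅`, no non-identity element of `M` whose order involves only primes of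
`τ₁(M) ∪ τ₃(M)` centralizes a non-identity element of `M_σ`. -/
theorem regular_of_kappa_empty (hG : IsMinSimpleOddOrder G) {M : Subgroup G}
    (hκ : ∀ p, p ∉ kappa M) {e : G} (heM : e ∈ M) (he1 : e ≠ 1)
    (hτ : ∀ p : ℕ, p.Prime → p ∣ orderOf e → p ∈ tau1 M ∪ tau3 M) :
    sigmaCore M ⊓ Subgroup.centralizer ({e} : Set G) = ⊥ := by
  rw [eq_bot_iff]
  intro y hy
  rw [Subgroup.mem_bot]
  by_contra hy1
  obtain ⟨hyσ, hyc⟩ := Subgroup.mem_inf.mp hy
  have hord : orderOf e ≠ 1 := fun h => he1 (orderOf_eq_one_iff.mp h)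
  obtain ⟨r, hrp, hrd⟩ := Nat.exists_prime_and_dvd hord
  have : Fact r.Prime := ⟨hrp⟩
  have hτr := hτ r hrp hrd
  have hrσ : r ∉ sigma M := by
    rcases hτr with h | h
    · exact h.2.1
    · exact h.2.1
  have hrk : PRankLE r 1 M := by
    rcases hτr with h | h
    · exact h.2.2.2.2
    · exact h.2.2.2
  obtain ⟨k, hk⟩ := hrd
  have hpos : 0 < orderOf e := orderOf_pos e
  have he' : orderOf (e ^ k) = r := by
    have hk0 : k ≠ 0 := by
      rintro rfl
      rw [mul_zero] at hk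
      omega
    rw [orderOf_pow' e hk0, hk, Nat.gcd_mul_left_left]
    exact Nat.mul_div_cancel _ (Nat.pos_of_ne_zero hk0)
  have hcomm : e ^ k * y = y * e ^ k := by
    have h1 : e * y = y * e := (Subgroup.mem_centralizer_iff.mp hyc e rfl)
    exact ((Commute.pow_left (show Commute e y from h1) k)).eq
  exact hκ r (mem_kappa_of_singular hG hrσ hrk (M.pow_mem heM k) he' hyσ hy1 hcomm)

/-- Statement S1359 with S1350, S1421, S1430 as hypotheses. -/
theorem s1359_core (hG : IsMinSimpleOddOrder G)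
    (h1350 : type_of% (@Cfsg.CfsgFrozen.S1350 G _ _ hG))
    (h1421 : type_of% (@Cfsg.CfsgFrozen.S1421 G _ _ hG))
    (h1430 : type_of% (@Cfsg.CfsgFrozen.S1430 G _ _ hG))
    (M : Subgroup G) (hM : IsCoatom M) (K U : Subgroup G)
    (hKU : Cfsg.IsSigmaDecomposition M K U) :
    IsMulCommutative (Subgroup.closure ((U : Set G) ∩ Cfsg.sigmaHat M)) := by
  by_cases hK1 : K = ⊥
  · -- `κ(M) = ∅`; `U` is a complement to `M_σ`
    have hκ : ∀ p, p ∉ kappa M := kappa_empty_of_hall_bot (hK1 ▸ hKU.hall)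
    have hE : IsComplIn U (sigmaCore M) M := by
      have := hKU.compl
      rwa [hK1, bot_sup_eq] at this
    obtain ⟨⟨A₀, -, -, hA₀c, hA₀⟩, -⟩ := h1421 M hM U hE
      (fun e heU he1 hτ => regular_of_kappa_empty hG hκ (hE.1 heU) he1 hτ)
    apply isMulCommutative_of_le _ hA₀c
    rw [Subgroup.closure_le]
    rintro a ⟨haU, -, y, hy, hy1, hay⟩
    apply hA₀ y hy hy1
    refine Subgroup.mem_inf.mpr ⟨haU, ?_⟩
    rw [Subgroup.mem_centralizer_iff]
    rintro _ rfl
    exact hay.symm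
  · -- `U` is conjugate to an abelian Hall subgroup
    obtain ⟨-, ⟨U', hU'c, hU'H, -, -⟩, -⟩ := h1430 M hM K hKU.hall hK1
    have hσH := (h1350 M hM).1
    have hUH := isPiHallOf_of_sigmaDecomposition hσH hKU
    have hMsolv : Group.IsSolvable M := isSolvable_of_ne_top hG hM.1
    obtain ⟨m, -, rfl⟩ := exists_conj_of_isPiHallOf hMsolv hU'H hUH
    exact isMulCommutative_of_le ((Subgroup.closure_le _).mpr Set.inter_subset_left)
      (isMulCommutative_map_conj hU'c m)

end Cfsg.Agent.Lib.Helper35.BG
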