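import Mathlib
import Cfsg.Statements.S1350
import Cfsg.Statements.S1366
import Cfsg.Statements.S1430
import Cfsg.Statements.S1435
import Cfsg.Agent.Lib.Helper35.BG.Hall

/-!
Statement S1363 (`K ≠ 1` ⟹ `U` abelian and `N_G(U) ≰ M`), with S1350, S1366, S1430, S1435 as
hypotheses (helper35).
-/

set_option autoImplicit false

namespace Cfsg.Agent.Lib.Helper35.BG

open Cfsg

variable {G : Type*} [Group G] [Finite G]

/-- In a standard factorisation with `K ≠ 1`, the complement `U` is abelian
(from S1350 and S1430). -/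
theorem isMulCommutative_U_of_ne_bot (hG : IsMinSimpleOddOrder G)
    (h1350 : type_of% (@Cfsg.CfsgFrozen.S1350 G _ _ hG))
    (h1430 : type_of% (@Cfsg.CfsgFrozen.S1430 G _ _ hG))
    (M : Subgroup G) (hM : IsCoatom M) (K U : Subgroup G)
    (hKU : Cfsg.IsSigmaDecomposition M K U) (hK1 : K ≠ ⊥) : IsMulCommutative U := by
  obtain ⟨-, ⟨U', hU'c, hU'H, -, -⟩, -⟩ := h1430 M hM K hKU.hall hK1
  have hσH := (h1350 M hM).1
  have hUH := isPiHallOf_of_sigmaDecomposition hσH hKU
  have hMsolv : Group.IsSolvable M := isSolvable_of_ne_top hG hM.1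
  obtain ⟨m, -, rfl⟩ := exists_conj_of_isPiHallOf hMsolv hU'H hUH
  exact isMulCommutative_map_conj hU'c m

omit [Finite G] in
theorem normalizer_bot_eq_top : Subgroup.normalizer (((⊥ : Subgroup G) : Subgroup G) : Set G) = ⊤ := by
  rw [eq_top_iff]
  intro g _
  rw [Subgroup.mem_normalizer_iff]
  intro x
  simp only [Subgroup.mem_bot]
  constructor
  · rintro rfl; simp
  · intro h
    have : x = g⁻¹ * (g * x * g⁻¹) * g := by group
    rw [this, h]; simp

/-- Statement S1363 with S1350, S1366, S1430, S1435 as hypotheses. -/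
theorem s1363_core (hG : IsMinSimpleOddOrder G)
    (h1350 : type_of% (@Cfsg.CfsgFrozen.S1350 G _ _ hG))
    (h1366 : type_of% (@Cfsg.CfsgFrozen.S1366 G _ _ hG))
    (h1430 : type_of% (@Cfsg.CfsgFrozen.S1430 G _ _ hG))
    (h1435 : type_of% (@Cfsg.CfsgFrozen.S1435 G _ _ hG))
    (M : Subgroup G) (hM : IsCoatom M) (K U : Subgroup G)
    (hKU : Cfsg.IsSigmaDecomposition M K U) (hK1 : K ≠ ⊥) :
    IsMulCommutative U ∧ ¬ Subgroup.normalizer (U : Set G) ≤ M := by
  refine ⟨isMulCommutative_U_of_ne_bot hG h1350 h1430 M hM K U hKU hK1, ?_⟩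
  by_cases hU1 : U = ⊥
  · rw [hU1, normalizer_bot_eq_top]
    exact fun h => hM.1 (top_le_iff.mp h)
  · intro hNU
    obtain ⟨Mstar, ⟨hMs, hKst, hKstH⟩, -⟩ := h1366 M hM K U hKU hK1
    have hcard : Nat.card U ≠ 1 := fun h => hU1 (Subgroup.card_eq_one.mp h)
    obtain ⟨r, hrp, hr⟩ := Nat.exists_prime_and_dvd hcard
    have : Fact r.Prime := ⟨hrp⟩
    obtain ⟨R⟩ : Nonempty (Sylow r U) := inferInstance
    set R' : Subgroup G := (R : Subgroup U).map U.subtype with hR'
    have hR'p : IsPGroup r R' := R.isPGroup'.map _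
    have hR'1 : R' ≠ ⊥ := by
      intro h
      have h1 : Nat.card R' = 1 := Subgroup.card_eq_one.mpr h
      rw [hR', Subgroup.card_map_of_injective U.subtype_injective] at h1
      have h2 := R.card_eq_multiplicity
      rw [h1] at h2
      have h3 : (Nat.card U).factorization r = 0 := by
        by_contra hne
        have : 1 < r ^ (Nat.card U).factorization r := Nat.one_lt_pow hne hrp.one_lt
        omega
      have hpos : 0 < Nat.card U := Nat.card_pos
      have := (hrp.factorization_pos_of_dvd hpos.ne' hr)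
      omega
    have hR'top : R' ≠ ⊤ := by
      intro h
      have hUM : U ≤ M := hKU.compl.1
      have : R' ≤ M := (Subgroup.map_subtype_le _).trans hUM
      rw [h] at this
      exact hM.1 (top_le_iff.mp this)
    obtain ⟨H, hH, hNR⟩ := exists_coatom_ge (normalizer_ne_top hG hR'1 hR'top)
    have key := h1435 M hM K U hKU hK1 hU1 Mstar hMs hKst hKstH r hr R H hH hNR
    exact key.2.2.2.1 (inf_le_right.trans hNU)

end Cfsg.Agent.Lib.Helper35.BG
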