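import Mathlib
import Cfsg.Prelude.Def_OddOrderLocal
import Cfsg.Agent.Lib.Helper35.BG.Basic
import Cfsg.Agent.Lib.Helper75.BGUtil

/-!
Complements (`Cfsg.IsComplIn`) from Schur–Zassenhaus, and nilpotency of images of commutator
subgroups in quotients (helper35).
-/

set_option autoImplicit false

namespace Cfsg.Agent.Lib.Helper35.BG

open Cfsg
open scoped commutatorElement

variable {G : Type*} [Group G]

/-- Schur–Zassenhaus in `IsComplIn` form: a subgroup `Q` of `N`, normalized by `N`, of order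
coprime to its index in `N`, has a complement in `N`. -/
theorem exists_isComplIn_of_coprime [Finite G] {Q N : Subgroup G} (hQN : Q ≤ N)
    (hnorm : N ≤ Subgroup.normalizer (Q : Set G))
    (hcop : (Nat.card Q).Coprime (Q.relIndex N)) : ∃ D : Subgroup G, IsComplIn Q D N := by
  have : (Q.subgroupOf N).Normal := Subgroup.normal_subgroupOf_of_le_normalizer hnorm
  have hcop' : (Nat.card (Q.subgroupOf N)).Coprime (Q.subgroupOf N).index := by
    rw [Nat.card_congr (Subgroup.subgroupOfEquivOfLe hQN).toEquiv]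
    exact hcop
  obtain ⟨H, hH⟩ := Subgroup.exists_right_complement'_of_coprime hcop'
  refine ⟨H.map N.subtype, hQN, Subgroup.map_subtype_le _, ?_, ?_⟩
  · rw [eq_bot_iff]
    rintro x ⟨hxQ, ⟨b, hb, rfl⟩⟩
    have : b ∈ (Q.subgroupOf N) ⊓ H := ⟨Subgroup.mem_subgroupOf.mpr hxQ, hb⟩
    rw [hH.disjoint.eq_bot, Subgroup.mem_bot] at this
    rw [Subgroup.mem_bot, this]
    rfl
  · intro m hm
    obtain ⟨⟨⟨a, ha⟩, ⟨b, hb⟩⟩, hab⟩ := hH.2 (⟨m, hm⟩ : N)
    refine ⟨(a : G), Subgroup.mem_subgroupOf.mp ha, (b : G), ⟨b, hb, rfl⟩, ?_⟩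
    have := congrArg (fun t : N => (t : G)) hab
    simpa using this.symm

/-- If every element of `H` is `ψ e * n` with `n ∈ N`, and the commutator subgroup of the source
of `ψ` is nilpotent, then the image of `H'` in `H ⧸ N` is nilpotent. -/
theorem nilpotent_map_commutator_of_hom {H E' : Type*} [Group H] [Group E'] (N : Subgroup H)
    [N.Normal] (ψ : E' →* H) (hfact : ∀ x : H, ∃ e : E', ∃ n ∈ N, x = ψ e * n)
    (hnil : Group.IsNilpotent ↥(commutator E')) :
    Group.IsNilpotent ↥((commutator H).map (QuotientGroup.mk' N)) := by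
  have hle : (commutator H).map (QuotientGroup.mk' N) ≤
      (commutator E').map ((QuotientGroup.mk' N).comp ψ) := by
    rw [commutator_def, Subgroup.map_le_iff_le_comap, Subgroup.commutator_le]
    intro x _ y _
    obtain ⟨e₁, n₁, hn₁, rfl⟩ := hfact x
    obtain ⟨e₂, n₂, hn₂, rfl⟩ := hfact y
    rw [Subgroup.mem_comap, map_commutatorElement]
    have h1 : (QuotientGroup.mk' N) (ψ e₁ * n₁) = (QuotientGroup.mk' N) (ψ e₁) := by
      rw [map_mul]
      have : (QuotientGroup.mk' N) n₁ = 1 := (QuotientGroup.eq_one_iff n₁).mpr hn₁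
      rw [this, mul_one]
    have h2 : (QuotientGroup.mk' N) (ψ e₂ * n₂) = (QuotientGroup.mk' N) (ψ e₂) := by
      rw [map_mul]
      have : (QuotientGroup.mk' N) n₂ = 1 := (QuotientGroup.eq_one_iff n₂).mpr hn₂
      rw [this, mul_one]
    rw [h1, h2]
    refine ⟨(⁅e₁, e₂⁆ : E'), ?_, ?_⟩
    · rw [commutator_def]
      exact Subgroup.commutator_mem_commutator (Subgroup.mem_top _) (Subgroup.mem_top _)
    · rw [map_commutatorElement]; rfl
  have := hnil
  have hn2 : Group.IsNilpotent ↥((commutator E').map ((QuotientGroup.mk' N).comp ψ)) :=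
    Group.nilpotent_of_surjective (((QuotientGroup.mk' N).comp ψ).subgroupMap (commutator E'))
      (MonoidHom.subgroupMap_surjective _ _)
  exact Cfsg.Agent.Lib.Helper75.BG.isNilpotent_of_le hle hn2

/-- If every element of `C ≤ H` is `n * ψ e` with `n ∈ N` and the source of `ψ` is nilpotent,
then the image of `C` in `H ⧸ N` is nilpotent. -/
theorem nilpotent_map_of_factor {H E' : Type*} [Group H] [Group E'] (N : Subgroup H)
    [N.Normal] (C : Subgroup H) (ψ : E' →* H) (hfact : ∀ x ∈ C, ∃ e : E', ∃ n ∈ N, x = n * ψ e)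
    (hnil : Group.IsNilpotent E') :
    Group.IsNilpotent ↥(C.map (QuotientGroup.mk' N)) := by
  have hle : C.map (QuotientGroup.mk' N) ≤ ((QuotientGroup.mk' N).comp ψ).range := by
    rintro _ ⟨x, hx, rfl⟩
    obtain ⟨e, n, hn, rfl⟩ := hfact x hx
    refine ⟨e, ?_⟩
    rw [map_mul]
    have : (QuotientGroup.mk' N) n = 1 := (QuotientGroup.eq_one_iff n).mpr hn
    rw [this, one_mul]; rfl
  have := hnil
  have hn2 : Group.IsNilpotent ↥(((QuotientGroup.mk' N).comp ψ).range) :=
    Group.nilpotent_of_surjective ((QuotientGroup.mk' N).comp ψ).rangeRestrict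
      (MonoidHom.rangeRestrict_surjective _)
  exact Cfsg.Agent.Lib.Helper75.BG.isNilpotent_of_le hle hn2

end Cfsg.Agent.Lib.Helper35.BG
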